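import Cfsg.Agent.Lib.SPL.Def
import Cfsg.Agent.Lib.Unitary.Wall5

/-!
# S3586: the eigenvalues of an element of `SUₙ(q)`
-/

set_option autoImplicit false

namespace Cfsg.Lib.SPL

open Matrix Polynomial Cfsg.Lib.Unitary

theorem roots_inv {K : Type*} [Field K] [IsAlgClosed K] {n : ℕ} {A B : Matrix (Fin n) (Fin n) K} (h : B * A = 1) :
    B.charpoly.roots = A.charpoly.roots.map (·⁻¹) := by
  have d : B.det * A.charpoly.roots.prod = 1 := by rw [← det_eq_prod_roots_charpoly, ← det_mul, h, det_one]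
  have c : A.charpoly.roots.card = n := by
    rw [← (IsAlgClosed.splits A.charpoly).natDegree_eq_card_roots, charpoly_natDegree_eq_dim, Fintype.card_fin]
  have a0 : ∀ a ∈ A.charpoly.roots, a ≠ 0 := fun a ha e => by
    rw [Multiset.prod_eq_zero (e ▸ ha), mul_zero] at d
    exact zero_ne_one d
  rw [← roots_multiset_prod_X_sub_C (A.charpoly.roots.map (·⁻¹))]
  congr 1
  refine eq_of_infinite_eval_eq _ _ ((Set.finite_singleton (0 : K)).infinite_compl.mono fun x hx => ?_)
  have x0 : x ≠ 0 := hx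
  have e1 : scalar (Fin n) x - B = B * ((-x) • (scalar (Fin n) x⁻¹ - A)) := by
    rw [scalar_apply, scalar_apply, ← smul_one_eq_diagonal, ← smul_one_eq_diagonal, Matrix.mul_smul, mul_sub, h,
      Matrix.mul_smul, mul_one, smul_sub, smul_smul, neg_mul, mul_inv_cancel₀ x0]
    simp [sub_eq_add_neg, add_comm]
  have e2 : (-x) ^ n = (A.charpoly.roots.map fun _ => -x).prod := by simp [c]
  change eval x _ = eval x _
  rw [eval_charpoly, e1, det_mul, det_smul, ← eval_charpoly, Fintype.card_fin,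
    (IsAlgClosed.splits A.charpoly).eval_eq_prod_roots_of_monic (charpoly_monic A), eval_multiset_prod, Multiset.map_map,
    Multiset.map_map, ← one_mul (Multiset.prod (Multiset.map (_ ∘ _) _)), ← d, mul_assoc]
  congr 1
  rw [e2, ← Multiset.prod_map_mul]
  conv_rhs => enter [1]; rw [← Multiset.map_id' A.charpoly.roots]
  rw [← Multiset.prod_map_mul]
  refine congrArg _ (Multiset.map_congr rfl fun a ha => ?_)
  have := a0 a ha
  simp only [Function.comp_apply, eval_sub, eval_X, eval_C]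
  field_simp
  ring

theorem ev_psu' {F : Type*} [Field F] [Fintype F] [DecidableEq (AlgebraicClosure F)ˣ] {p q : ℕ} [CharP F p] (hp : p.Prime)
    (hF : Fintype.card F = q ^ 2) {n : ℕ} (hn : 2 ≤ n) (x : PSU n F q)
    (hem : ∀ g : Matrix (Fin n) (Fin n) (AlgebraicClosure F), g.det = 1 →
      ∃ R : Multiset (AlgebraicClosure F)ˣ, R.map (fun a => (a : AlgebraicClosure F)) = g.charpoly.roots ∧ R.card = n ∧
        R.prod = 1 ∧ ∀ m c : ℕ, (∀ a ∈ R, ∀ b ∈ R, a ^ m = b ^ m) → (∀ a ∈ R, R.count a ≤ p ^ c) →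
        ∃ l : AlgebraicClosure F, g ^ (m * p ^ c) = l • 1) :
    ∃ R : Multiset (AlgebraicClosure F)ˣ, Ev n (-q) p (orderOf x) R := by
  obtain ⟨σ, hσ⟩ := exists_isBar hF
  obtain ⟨p', f, hp', hc, f1, hq⟩ := exists_prime_pow_of_card hF
  obtain rfl := CharP.eq F ‹CharP F p› hc
  have := Fact.mk hp
  obtain ⟨g, rfl⟩ := QuotientGroup.mk_surjective x
  set ι := algebraMap F (AlgebraicClosure F)
  let φ := iterateFrobenius (AlgebraicClosure F) p f
  have hφ : ∀ a, φ a = a ^ q := fun a => by rw [hq]; exact iterateFrobenius_def p f a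
  obtain ⟨R, h1, h2, h3, h4⟩ := hem (g.1.1.map ι) (by
    rw [← RingHom.mapMatrix_apply, ← RingHom.map_det, g.1.2, map_one])
  have e : ((g.1.1.map ι).map φ)ᵀ * g.1.1.map ι = 1 := by
    have := congrArg ι.mapMatrix (hσ.mem_SU_iff.1 g.2)
    rw [map_mul, map_one] at this
    refine Eq.trans (congrArg (· * _) ?_) this
    ext i j
    simp [hφ, hσ.eq]
  have r := roots_inv e
  rw [charpoly_transpose, charpoly_map, (IsAlgClosed.splits _).roots_map, ← h1, Multiset.map_map, Multiset.map_map] at r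
  refine ⟨R, hp, by rw [hq, dvd_neg]; exact_mod_cast dvd_pow_self p (by omega), by simpa using hσ.two_le, h2, ?_,
    fun a b (e : a ^ (-q : ℤ) = b ^ (-q : ℤ)) => ?_, h3, fun m c k1 k2 => ?_⟩
  · refine Multiset.map_injective Units.val_injective ?_
    have := congrArg (Multiset.map (·⁻¹)) r
    simpa [Multiset.map_map, hφ, Function.comp_def] using this
  · rw [_root_.zpow_neg, _root_.zpow_neg, _root_.inv_inj, _root_.zpow_natCast, _root_.zpow_natCast] at e
    exact Units.ext (φ.injective (by rw [hφ, hφ, ← Units.val_pow_eq_pow_val, e, Units.val_pow_eq_pow_val]))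
  · obtain ⟨l, hl⟩ := h4 m c k1 k2
    rw [← RingHom.mapMatrix_apply, ← map_pow] at hl
    have i0 : Fin n := ⟨0, by omega⟩
    refine (hσ.orderOf_psu_dvd_iff hn).2 ⟨(g.1.1 ^ (m * p ^ c)) i0 i0, ?_⟩
    rw [← GLC.toLin'_pow', GLC.toLin'_eq_smul_one_iff]
    ext i j
    have a1 := congrFun (congrFun hl i) j
    have a2 := congrFun (congrFun hl i0) i0
    simp only [RingHom.mapMatrix_apply, map_apply, Matrix.smul_apply, one_apply_eq, smul_eq_mul, mul_one] at a1 a2
    refine ι.injective ?_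
    rw [a1, Matrix.smul_apply, smul_eq_mul, map_mul, a2, one_apply, one_apply]
    split_ifs <;> simp

end Cfsg.Lib.SPL
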