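import Cfsg.Agent.Lib.SPL.Def

/-!
# S3586, numbers: parity of the torus orders
-/

set_option autoImplicit false

namespace Cfsg.Lib.SPL

open Finset

variable {n : ℕ} {Q : ℤ}

theorem w_eq (Q : ℤ) (n : ℕ) : w Q n = w Q 1 * (∑ i ∈ range n, Q ^ i).natAbs := by
  rw [w, w, pow_one, ← Int.natAbs_mul, mul_comm, geom_sum_mul]

theorem gcd_dvd_sum (Q : ℤ) (n : ℕ) : n.gcd (w Q 1) ∣ (∑ i ∈ range n, Q ^ i).natAbs := by
  have h1 : ((n.gcd (w Q 1) : ℕ) : ℤ) ∣ Q - 1 := by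
    exact Int.natCast_dvd.2 (by simpa [w] using Nat.gcd_dvd_right n (w Q 1))
  have h2 : (Q - 1) ∣ ∑ i ∈ range n, (Q ^ i - 1) := dvd_sum fun i _ => by simpa using sub_dvd_pow_sub_pow Q 1 i
  rw [sum_sub_distrib, sum_const, card_range, nsmul_one] at h2
  rw [← Int.natCast_dvd]
  exact (dvd_sub_left (Int.natCast_dvd_natCast.2 (Nat.gcd_dvd_left _ _))).1 (h1.trans h2)

theorem w_one_pos (two : 2 ≤ Q.natAbs) : 0 < w Q 1 := by
  rw [w, pow_one]; omega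

theorem tn_mul (two : 2 ≤ Q.natAbs) (n : ℕ) : tn n Q * n.gcd (w Q 1) = (∑ i ∈ range n, Q ^ i).natAbs := by
  rw [tn, w_eq Q n, Nat.mul_div_mul_left _ _ (w_one_pos two), Nat.div_mul_cancel (gcd_dvd_sum Q n)]

theorem tm_mul (n : ℕ) : tm n Q * n.gcd (w Q 1) = w Q (n - 1) :=
  Nat.div_mul_cancel (w_eq Q (n - 1) ▸ (Nat.gcd_dvd_right _ _).mul_right _)

theorem odd_sum (h : Odd Q) (hn : Odd n) : Odd (∑ i ∈ range n, Q ^ i) := by
  obtain ⟨k, rfl⟩ := hn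
  induction k with
  | zero => simp
  | succ k ih =>
    rw [show 2 * (k + 1) + 1 = 2 * k + 1 + 1 + 1 by ring, sum_range_succ, sum_range_succ, add_assoc]
    exact ih.add_even (h.pow.add_odd h.pow)

theorem odd_and' (hn : 4 ≤ n) (two : 2 ≤ Q.natAbs) (h : Even Q) : Odd (tn n Q) ∧ Odd (tm n Q) := by
  have o : ∀ d, 0 < d → Odd (w Q d) := fun d hd =>
    Int.natAbs_odd.2 ((Int.even_pow.2 ⟨h, hd.ne'⟩).sub_odd odd_one)
  refine ⟨Odd.of_dvd_nat (o n (by omega)) ?_, Odd.of_dvd_nat (o (n - 1) (by omega)) ⟨_, (tm_mul n).symm⟩⟩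
  rw [w_eq Q n, ← tn_mul two]
  exact (dvd_mul_right _ _).mul_left _

theorem odd_or' (hn : 4 ≤ n) (two : 2 ≤ Q.natAbs) : Odd (tn n Q) ∨ Odd (tm n Q) := by
  rcases Int.even_or_odd Q with h | h
  · exact .inl (odd_and' hn two h).1
  have w0 := (w_one_pos two).ne'
  have n0 : n ≠ 0 := by omega
  obtain ⟨a, n', hn', e1⟩ := Nat.exists_eq_two_pow_mul_odd n0
  obtain ⟨b, u, hu, e2⟩ := Nat.exists_eq_two_pow_mul_odd w0
  have b0 : b ≠ 0 := by
    rintro rfl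
    rw [pow_zero, one_mul, w, pow_one] at e2
    exact Int.not_even_iff_odd.2 (Int.natAbs_odd.1 (e2 ▸ hu)) (h.sub_odd odd_one)
  have key : ∀ {t g s c : ℕ}, t * g = 2 ^ c * s → Odd s → 2 ^ c ∣ g → Odd t := fun {t g s c} e hs ⟨v, hv⟩ => by
    rw [hv, mul_left_comm] at e
    exact Odd.of_dvd_nat hs ⟨v, (Nat.eq_of_mul_eq_mul_left (by positivity) e).symm⟩
  rcases le_or_gt b a with l | l
  · have : Odd (n - 1) := Nat.Even.sub_odd (by omega) (e1 ▸ (Nat.even_pow.2 ⟨even_two, by omega⟩).mul_right _) odd_one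
    refine .inr (key (c := b) (by rw [tm_mul, w_eq, e2, mul_assoc]) (hu.mul (Int.natAbs_odd.2 (odd_sum h this))) ?_)
    exact Nat.dvd_gcd (e1 ▸ (pow_dvd_pow 2 l).mul_right _) ⟨u, e2⟩
  have : ∀ a, a < b → ∀ n', Odd n' → ∃ s : ℤ, Odd s ∧ ∑ i ∈ range (2 ^ a * n'), Q ^ i = 2 ^ a * s := fun a => by
    induction a with
    | zero => exact fun _ n' k => ⟨_, odd_sum h k, by simp⟩
    | succ a ih =>
      intro l n' k
      obtain ⟨s, hs, e⟩ := ih (by omega) n' k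
      have d4 : (4 : ℤ) ∣ Q ^ (2 ^ a * n') - 1 := by
        refine Dvd.dvd.trans ?_ (by simpa using sub_dvd_pow_sub_pow Q 1 (2 ^ a * n'))
        rw [← pow_one Q]
        exact Int.natCast_dvd.2 (show 2 ^ 2 ∣ w Q 1 from e2 ▸ (pow_dvd_pow 2 (by omega)).mul_right _)
      obtain ⟨c, hc⟩ := d4
      refine ⟨s * (2 * c + 1), hs.mul (odd_two_mul_add_one c), ?_⟩
      rw [pow_succ 2 a, mul_right_comm, mul_two, sum_range_add]
      simp only [pow_add, ← mul_sum]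
      rw [e, sub_eq_iff_eq_add.1 hc]
      ring
  obtain ⟨s, hs, e⟩ := this a l n' hn'
  refine .inl (key (c := a) (by rw [tn_mul two, e1, e, Int.natAbs_mul, Int.natAbs_pow]; rfl) (Int.natAbs_odd.2 hs) ?_)
  exact Nat.dvd_gcd ⟨n', e1⟩ (e2 ▸ (pow_dvd_pow 2 l.le).mul_right _)

end Cfsg.Lib.SPL
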