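import Cfsg.Agent.Lib.SPL.Def

/-!
# S3586, numbers: parity of the torus orders
-/

set_option autoImplicit false

namespace Cfsg.Lib.SPL

variable {n : ℕ} {Q : ℤ}

theorem w_geom (Q : ℤ) (n : ℕ) : w Q n = (∑ i ∈ Finset.range n, Q ^ i).natAbs * w Q 1 := by
  rw [w, w, pow_one, ← Int.natAbs_mul, geom_sum_mul]

theorem w_one_pos (two : 2 ≤ Q.natAbs) : 0 < w Q 1 := by
  rw [w, pow_one]; omega

theorem geom_sub (Q : ℤ) (n : ℕ) : Q - 1 ∣ ∑ i ∈ Finset.range n, Q ^ i - n := by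
  rw [show (n : ℤ) = ∑ i ∈ Finset.range n, 1 ^ i by simp, ← Finset.sum_sub_distrib]
  exact Finset.dvd_sum fun i _ => sub_dvd_pow_sub_pow Q 1 i

theorem tn_mul_gcd (two : 2 ≤ Q.natAbs) : tn n Q * n.gcd (w Q 1) = (∑ i ∈ Finset.range n, Q ^ i).natAbs := by
  rw [tn, w_geom Q n, mul_comm _ (w Q 1), Nat.mul_div_mul_left _ _ (w_one_pos two), Nat.div_mul_cancel]
  rw [← Int.natCast_dvd, ← sub_add_cancel (∑ i ∈ Finset.range n, Q ^ i) n]
  refine dvd_add (Dvd.dvd.trans ?_ (geom_sub Q n)) (Int.natCast_dvd_natCast.2 (Nat.gcd_dvd_left _ _))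
  rw [Int.natCast_dvd]
  simpa only [w, pow_one] using Nat.gcd_dvd_right n (w Q 1)

theorem tm_mul_gcd : tm n Q * n.gcd (w Q 1) = w Q (n - 1) :=
  Nat.div_mul_cancel ((Nat.gcd_dvd_right _ _).trans (Dvd.intro_left _ (w_geom Q _).symm))

theorem odd_w {d : ℕ} (h : Even Q) (hd : d ≠ 0) : Odd (w Q d) :=
  Int.natAbs_odd.2 ((h.pow_of_ne_zero hd).sub_odd odd_one)

theorem odd_geom (h : Odd Q) (hn : Odd n) : Odd (∑ i ∈ Finset.range n, Q ^ i).natAbs := by
  rw [Int.natAbs_odd, ← sub_add_cancel (∑ i ∈ Finset.range n, Q ^ i) n]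
  exact (even_iff_two_dvd.2 ((h.sub_odd odd_one).two_dvd.trans (geom_sub Q n))).add_odd hn.natCast

theorem odd_and' (hn : 4 ≤ n) (two : 2 ≤ Q.natAbs) (h : Even Q) : Odd (tn n Q) ∧ Odd (tm n Q) := by
  have h1 := odd_w (d := n) h (by omega)
  have h2 := odd_w (d := n - 1) h (by omega)
  rw [w_geom, ← tn_mul_gcd two] at h1
  rw [← tm_mul_gcd] at h2
  exact ⟨(Nat.odd_mul.1 (Nat.odd_mul.1 h1).1).1, (Nat.odd_mul.1 h2).1⟩

theorem odd_or' (hn : 4 ≤ n) (two : 2 ≤ Q.natAbs) : Odd (tn n Q) ∨ Odd (tm n Q) := by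
  rcases Int.even_or_odd Q with h | h
  · exact .inl (odd_and' hn two h).1
  by_contra! c
  obtain ⟨c1, c2⟩ := c
  rw [Nat.not_odd_iff_even, even_iff_two_dvd] at c1 c2
  have e1 := tn_mul_gcd (n := n) two
  have e2 := tm_mul_gcd (n := n) (Q := Q)
  have ev : Even n := Nat.not_odd_iff_even.1 fun o =>
    (odd_geom h o).not_two_dvd_nat (e1 ▸ c1.mul_right _)
  have g0 : n.gcd (w Q 1) ≠ 0 := Nat.gcd_ne_zero_left (by omega)
  obtain ⟨c, g, og, eg⟩ := Nat.exists_eq_two_pow_mul_odd g0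
  have k : ∀ t, 2 ∣ t → 2 ^ (c + 1) ∣ t * n.gcd (w Q 1) := fun t ht => by
    rw [pow_succ', eg]; exact mul_dvd_mul ht (dvd_mul_right _ _)
  have d1 : 2 ^ (c + 1) ∣ w Q 1 := by
    have := k _ c2
    rw [e2, w_geom] at this
    exact ((odd_geom h (Nat.Even.sub_odd (by omega) ev odd_one)).coprime_two_left.pow_left _).dvd_of_dvd_mul_left this
  have c0 : c ≠ 0 := by
    rintro rfl
    have := Nat.dvd_gcd ev.two_dvd (show 2 ∣ w Q 1 by simpa using d1)
    rw [eg, pow_zero, one_mul] at this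
    exact og.not_two_dvd_nat this
  have d4 : 4 ∣ Q - 1 := by
    have := (pow_dvd_pow 2 (show 2 ≤ c + 1 by omega)).trans d1
    rw [w, pow_one, ← Int.natCast_dvd] at this
    exact this
  have l := Int.two_pow_sub_pow' n d4 (Int.not_even_iff_odd.2 h ∘ even_iff_two_dvd.2)
  rw [one_pow, ← mul_geom_sum, emultiplicity_mul Int.prime_two] at l
  have l' := WithTop.add_left_cancel (α := ℕ) (finiteMultiplicity_iff_emultiplicity_ne_top.1
    (Int.finiteMultiplicity_iff.2 ⟨by norm_num, by omega⟩)) l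
  have d2 : (2 : ℤ) ^ (c + 1) ∣ n := by
    rw [pow_dvd_iff_le_emultiplicity, ← l', ← pow_dvd_iff_le_emultiplicity, ← Int.natAbs_dvd_natAbs, ← e1]
    simpa using k _ c1
  have := Nat.dvd_gcd (by exact_mod_cast d2) d1
  rw [eg, pow_succ, Nat.mul_dvd_mul_iff_left (by positivity)] at this
  exact og.not_two_dvd_nat this

end Cfsg.Lib.SPL
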